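import Cfsg.Agent.H33.IM

/-!
# S4832: the target (helper6)

* `Inv θ α` : `θ ∘ α = θ`; `StabExt θ` : `θ` extends to its stabiliser in `Aut S`;
* `RowSE p S` : some irreducible character of `S` of degree divisible by `p` extends to its stabiliser in `Aut S`.

The criteria are in `Cfsg.Agent.H6.SE.Base`.
-/

set_option autoImplicit false

namespace Cfsg.Agent.H6.SE

open Cfsg

/-- `θ` is invariant under the automorphism `α`. -/
def Inv {S : Type*} [Group S] (θ : S → ℂ) (α : MulAut S) : Prop := ∀ s, θ (α s) = θ s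

/-- `θ` extends to its stabiliser in `Aut S`. -/
def StabExt {S : Type*} [Group S] (θ : S → ℂ) : Prop :=
  ∀ T : Subgroup (MulAut S), (∀ α : MulAut S, α ∈ T ↔ Inv θ α) →
    ∃ ψ : T → ℂ, IsIrrCharacter T ψ ∧ ∀ (s : S) (hs : MulAut.conj s ∈ T), ψ ⟨MulAut.conj s, hs⟩ = θ s

/-- The conclusion of S4832. -/
def RowSE (p : ℕ) (S : Type*) [Group S] : Prop :=
  ∃ θ : S → ℂ, IsIrrCharacter S θ ∧ p ∣ charDegree θ ∧ StabExt θ

end Cfsg.Agent.H6.SE
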